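import Cfsg.Agent.PF.G5A
import Cfsg.Agent.PF.G5C
import Cfsg.Agent.PF.Num6
import Cfsg.Agent.PF.GoodOf

/-! Fact (C) of the plan of S1544 for the type I side (helper6). -/

set_option autoImplicit false

namespace Cfsg.Agent.PF

open Subgroup ComplexConjugate
open Cfsg.Agent.H3 Cfsg.Agent.H11

universe u v w

variable {G : Type u} [Group G] [Fintype G]

section
variable {M W₁ U W₂ : Subgroup G} [Fintype ↥M] {η : Lin W₁ W₂ → G → ℂ}
  {μ : Lin W₁ W₂ → ↥M → ℂ} {δ : Lin W₁ W₂ → ℤ} {u : ℕ}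
variable {X : Set G} {e k : ℕ} {ι : Type v} [Fintype ι] {Z : ι → G → ℂ} {m : ι → ℕ}
  {i₀ : ι} {Φ : G → ℂ}

/-- `σλ ⊥ η` -/
theorem IsLam.eta (h : IsLam X e k Z m i₀ Φ) (F : IsFrame M W₁ U W₂ η μ δ)
    (hd : ∀ g ∈ Vset W₁ W₂, g ∉ X) (i : ι) (ω : Lin W₁ W₂) : classInner (Z i) (η ω) = 0 := by
  by_contra hne
  obtain ⟨j, hji, hj, -⟩ := h.cjj i
  have hη : SIrr (η ω) := eta_sirr F.fam ω
  have hij : classInner (Z i) (Z j) = 0 := h.orth i j hji.symm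
  have hji0 : classInner (Z j) (Z i) = 0 := h.orth j i hji
  have hodd : Odd (Nat.card ↥(W₁ ⊔ W₂)) :=
    Odd.of_dvd_nat h.odd (Subgroup.card_subgroup_dvd_card (W₁ ⊔ W₂))
  have hgen : IsGeneralizedCharacter G (Z i - conjFun (Z i)) := by
    rw [← hj]; exact isGen_sub (h.sirr i).isGen (h.sirr j).isGen
  have hn : classInner (Z i - conjFun (Z i)) (Z i - conjFun (Z i)) = 2 := by
    rw [← hj, classInner_sub_left, classInner_sub_right, classInner_sub_right, (h.sirr i).norm,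
      (h.sirr j).norm, hij, hji0]
    norm_num
  have h1 := grid_small F.fam hodd F.hP.selfNormalizing hgen
    (fun v hv => h.sub_conj_van i (hd v hv)) (by rw [hn]; norm_num) ω
  have h2 : classInner (conjFun (Z i)) (η ω) = 0 := by
    rcases (h.sirr i).dichotomy hη with h3 | ⟨s, hs, h3⟩
    · exact absurd h3 hne
    · rw [← hj]
      have h4 : classInner (Z j) (Z i) = 0 := hji0
      rw [h3, classInner_smul_right] at h4
      rcases mul_eq_zero.1 h4 with h5 | h5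
      · exfalso
        have h6 := (h.sirr i).norm
        rw [h3] at h6
        have h7 : s = 0 := by
          have := (map_eq_zero (starRingEnd ℂ)).1 h5
          exact_mod_cast this
        rcases hs with hs | hs <;> rw [hs] at h7 <;> norm_num at h7
      · exact h5
  rw [classInner_sub_left, h2, sub_zero] at h1
  exact hne h1

/-- Fact (C) for a type I side -/
theorem IsGood.lam_C (h : IsGood M W₁ U W₂ η μ δ u) (hu : u = Nat.card U)
    (hL : IsLam X e k Z m i₀ Φ) (hd : ∀ g ∈ typeA0 M, g ∉ X) {s : ℤ} {ψ : Lin W₁ W₂}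
    (hψ : IsJ W₁ W₂ ψ) (hψ1 : ψ ≠ 1) (hs : classInner Φ (η ψ) = s) (he : Even s) :
    (k - 1) * Nat.card W₁ ≤ e * (Nat.card U - 1) := by
  have h1 := h.factC hu (m := fun i => (m i : ℤ)) hL.sirr hL.orth hL.Z_one
    (hL.eta h.F (fun g hg => hd g (h.F.V_sub_A0 hg)))
    (fun i x hx => by rw [hL.van i x (hd x hx)]; push_cast; rfl) hL.gen hL.one hL.real
    (fun x hx => hL.vanΦ x (hd x hx)) hψ hψ1 hs he
  have h2 := hL.sum
  have hU : 1 ≤ Nat.card U := Nat.card_pos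
  have h3 : k - 1 = (∑ i, m i ^ 2) * e := by omega
  rw [h3, ← hu]
  have h4 : ((Nat.card W₁ * ∑ i, m i ^ 2 : ℕ) : ℤ) ≤ ((u - 1 : ℕ) : ℤ) := by
    rw [Nat.cast_sub (by rw [hu]; exact hU)]
    push_cast
    exact_mod_cast h1
  have h5 : Nat.card W₁ * ∑ i, m i ^ 2 ≤ u - 1 := by exact_mod_cast h4
  calc (∑ i, m i ^ 2) * e * Nat.card W₁ = e * (Nat.card W₁ * ∑ i, m i ^ 2) := by ring
    _ ≤ e * (u - 1) := Nat.mul_le_mul_left e h5

end

section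
variable {S T W₁ W₂ U V : Subgroup G} [Fintype ↥S] [Fintype ↥T] (hG : IsMinSimpleOddOrder G)
  {η : Lin W₁ W₂ → G → ℂ} {μ : Lin W₁ W₂ → ↥S → ℂ} {δ : Lin W₁ W₂ → ℤ}
variable {e k : ℕ} {ι : Type v} [Fintype ι] {Z : ι → G → ℂ} {m : ι → ℕ}
  {i₀ : ι} {Φ : G → ℂ}

include hG in
/-- Fact (Cs): `X = HG L`, `hd` from `IsPair.HG_disj_S` -/
theorem IsPair.lam_Cs (h : IsPair S T W₁ W₂ U V) (F : IsFrame S W₁ U W₂ η μ δ) {X : Set G}
    (hZ : IsLam X e k Z m i₀ Φ) (hd : ∀ g ∈ typeA0 S, g ∉ X) {s : ℤ}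
    {ψ : Lin W₁ W₂} (hψ : IsJ W₁ W₂ ψ) (hψ1 : ψ ≠ 1) (hs : classInner Φ (η ψ) = s)
    (he : Even s) : (k - 1) * Nat.card W₁ ≤ e * (Nat.card U - 1) := by
  refine (h.good hG F).lam_C ?_ hZ hd hψ hψ1 hs he
  rw [h.CU_eq_bot hG, Subgroup.relIndex_bot_left]

include hG in
/-- Fact (Cr): `X = HG L`, `hd` from `IsPair.HG_disj_S` for `h.symm` -/
theorem IsPair.lam_Cr (h : IsPair S T W₁ W₂ U V) {ν : Lin W₂ W₁ → ↥T → ℂ} {ε : Lin W₂ W₁ → ℤ}
    (F : IsFrame T W₂ V W₁ (swF η) ν ε) {X : Set G}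
    (hZ : IsLam X e k Z m i₀ Φ) (hd : ∀ g ∈ typeA0 T, g ∉ X) {r : ℤ}
    {φ : Lin W₁ W₂} (hφ : IsI W₁ W₂ φ) (hφ1 : φ ≠ 1) (hr : classInner Φ (η φ) = r)
    (he : Even r) : (k - 1) * Nat.card W₂ ≤ e * (Nat.card V - 1) := by
  have h0 : swL (swL φ) = φ := swL_swL φ
  have h1 : IsJ W₂ W₁ (swL φ) := isI_swL.1 (by rw [h0]; exact hφ)
  have h2 : swL φ ≠ (1 : Lin W₂ W₁) := by
    intro h3
    apply hφ1
    rw [← h0, h3]
    rfl
  refine h.symm.lam_Cs hG F hZ hd h1 h2 ?_ he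
  change classInner Φ (η (swL (swL φ))) = r
  rw [h0, hr]

end

end Cfsg.Agent.PF
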