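import Cfsg.Agent.PF.G5AA
import Cfsg.Agent.PF.G5L2
import Cfsg.Agent.PF.G5D
import Cfsg.Agent.PF.G5E2

set_option autoImplicit false
set_option linter.style.haveILetI false
set_option linter.unusedSectionVars false

/-! The facts (A)–(F) of notes/PF_G5G6.md for all maximal subgroups of type I. (helper7) -/

namespace Cfsg.Agent.PF

open Subgroup ComplexConjugate
open Cfsg.Agent.H3
open Cfsg.Agent.L (cj)

universe u v w

variable {G : Type u} [Group G] [Fintype G] {S T W₁ W₂ U V : Subgroup G}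

theorem IsPair.HG_tilde (hG : IsMinSimpleOddOrder G) (h : IsPair S T W₁ W₂ U V) {N : Subgroup G}
    (hN : IsCoatom N) (hI : IsOfTypeI N) : ∀ g ∈ HG N, g ∉ tildeOf S (typeA0 S) := by
  rintro g hg ⟨a, ha, u, hu, x, he⟩
  rw [h.supp hG ha, Subgroup.mem_bot] at hu
  rw [hu, mul_one] at he
  refine h.HG_disj_S hG hN hI hg x⁻¹ ?_
  have : x⁻¹ * g * x⁻¹⁻¹ = a := by rw [he]; group
  rw [this]; exact ha

/-- the data of all the maximal subgroups of type I -/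
theorem IsPair.exists_all (hG : IsMinSimpleOddOrder G) (h : IsPair S T W₁ W₂ U V) [Fintype ↥S]
    [Fintype ↥T] {η : Lin W₁ W₂ → G → ℂ} {μ : Lin W₁ W₂ → ↥S → ℂ} {δ : Lin W₁ W₂ → ℤ}
    (F : IsFrame S W₁ U W₂ η μ δ) {ν : Lin W₂ W₁ → ↥T → ℂ} {ε : Lin W₂ W₁ → ℤ}
    (F' : IsFrame T W₂ V W₁ (swF η) ν ε) :
    ∃ (ι : Subgroup G → Type u) (_ : ∀ L, Fintype (ι L)) (Z : ∀ L, ι L → G → ℂ)
      (m : ∀ L, ι L → ℕ) (i₀ : ∀ L, ι L) (Φ : Subgroup G → G → ℂ) (rr ss : Subgroup G → ℤ),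
      ∀ L : Subgroup G, IsCoatom L → IsOfTypeI L →
        IsLam (HG L) ((fittingHallOf L).relIndex L) (Nat.card (fittingHallOf L)) (Z L) (m L)
          (i₀ L) (Φ L) ∧ IsRS η (Φ L) (rr L) (ss L) := by
  have key : ∀ L : Subgroup G, ∃ (ι : Type u) (_ : Fintype ι) (Z : ι → G → ℂ) (m : ι → ℕ) (i₀ : ι)
      (Φ : G → ℂ) (r s : ℤ), IsCoatom L → IsOfTypeI L →
        IsLam (HG L) ((fittingHallOf L).relIndex L) (Nat.card (fittingHallOf L)) Z m i₀ Φ ∧
          IsRS η Φ r s := by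
    intro L
    by_cases hL : IsCoatom L ∧ IsOfTypeI L
    · obtain ⟨ι, i1, Z, m, i₀, Φ, hlam⟩ := exists_lam hG h hL.1 hL.2
      obtain ⟨r, s, hrs⟩ := hlam.exists_rs (h.good hG F) (h.symm.good hG F')
        (h.HG_tilde hG hL.1 hL.2) (h.symm.HG_tilde hG hL.1 hL.2)
      exact ⟨ι, i1, Z, m, i₀, Φ, r, s, fun _ _ => ⟨hlam, hrs⟩⟩
    · exact ⟨PUnit, inferInstance, fun _ => 0, fun _ => 0, PUnit.unit, 0, 0, 0,
        fun h1 h2 => absurd ⟨h1, h2⟩ hL⟩
  choose ι i1 Z m i₀ Φ rr ss hall using key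
  exact ⟨ι, i1, Z, m, i₀, Φ, rr, ss, hall⟩

theorem card_HN {A : Subgroup G} :
    (((fittingHallOf A).relIndex A : ℕ) : ℝ) * Nat.card (fittingHallOf A) = Nat.card A := by
  have h1 := L.card_mul_relIndex (T := fittingHallOf A) (U := A) (fhOf_le' A)
  rw [← h1]; push_cast; ring

/-- **the facts about the maximal subgroups of type I** (Cs, Cr as hypotheses) -/
theorem IsPair.lfacts' (hG : IsMinSimpleOddOrder G) (h : IsPair S T W₁ W₂ U V)
    (hlt : Nat.card W₁ < Nat.card W₂)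
    (hCs : ∀ {L : Subgroup G} [Fintype ↥S] [Fintype ↥T] {η : Lin W₁ W₂ → G → ℂ}
      {μ : Lin W₁ W₂ → ↥S → ℂ} {δ : Lin W₁ W₂ → ℤ} {ν : Lin W₂ W₁ → ↥T → ℂ} {ε : Lin W₂ W₁ → ℤ}
      {ι : Type u} [Fintype ι] {Z : ι → G → ℂ} {m : ι → ℕ} {i₀ : ι} {Φ : G → ℂ} {r s : ℤ},
      IsCoatom L → IsOfTypeI L → IsFrame S W₁ U W₂ η μ δ → IsFrame T W₂ V W₁ (swF η) ν ε →
      IsLam (HG L) ((fittingHallOf L).relIndex L) (Nat.card (fittingHallOf L)) Z m i₀ Φ →
      IsRS η Φ r s →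
      (Even s → (Nat.card (fittingHallOf L) - 1) * Nat.card W₁ ≤
        (fittingHallOf L).relIndex L * (Nat.card U - 1)) ∧
      (Even r → (Nat.card (fittingHallOf L) - 1) * Nat.card W₂ ≤
        (fittingHallOf L).relIndex L * (Nat.card V - 1))) :
    ∃ rr ss : Subgroup G → ℤ, LFacts S T W₁ W₂ U V rr ss := by
  classical
  haveI : Fintype ↥S := Fintype.ofFinite _
  haveI : Fintype ↥T := Fintype.ofFinite _
  obtain ⟨η, μ, δ, ν, ε, F, F'⟩ := h.frames hG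
  obtain ⟨ι, i1, Z, m, i₀, Φ, rr, ss, hall⟩ := h.exists_all hG F F'
  have hII := h.typeII_of_lt hG hlt
  refine ⟨rr, ss, ?_⟩
  constructor
  · intro L hL hI
    obtain ⟨hlam, hrs⟩ := hall L hL hI
    exact hlam.grid_le' F (h.HG_tilde hG hL hI) hrs
  · intro L hL hI hs
    obtain ⟨hlam, hrs⟩ := hall L hL hI
    exact (hCs hL hI F F' hlam hrs).1 hs
  · intro L hL hI hs
    obtain ⟨hlam, hrs⟩ := hall L hL hI
    exact (hCs hL hI F F' hlam hrs).2 hs
  · intro L hL hI he hr hs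
    refine h.dens hG hII F F' hL hI (fun R hLR hR hRd => ?_)
    obtain ⟨hlam, hrs⟩ := hall L hL hI
    have hdisj : ∀ A ∈ R, ∀ B ∈ R, A ≠ B → Disjoint (HG A) (HG B) := fun A hA B hB hAB =>
      Set.disjoint_left.2 (fun g hg => h.HG_disj hG (hR A hA).1 (hR A hA).2 (hR B hB).1
        (hR B hB).2 (hRd A hA B hB hAB) hg)
    have h1 := lam_density R L hLR HG (fun A => (fittingHallOf A).relIndex A)
      (fun A => Nat.card (fittingHallOf A)) ι Z m i₀ Φ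
      (fun A hA => (hall A (hR A hA).1 (hR A hA).2).1) hdisj (fun A hA hAL => by
        obtain ⟨hlamA, -⟩ := hall A (hR A hA).1 (hR A hA).2
        exact hlam.inner_zero_of_odd F (h.HG_tilde hG hL hI) hrs hr hs he
          (hlamA.sirr _).norm (fun ω => hlamA.Z_eta F (h.HG_tilde hG (hR A hA).1 (hR A hA).2) _ ω)
          (fun i => hlamA.cross hlam (hdisj A hA L hLR hAL) _ i))
    simp only [card_HN] at h1
    exact h1
  · intro L hL hI hIII hs
    obtain ⟨hlam, hrs⟩ := hall L hL hI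
    exact h.fact_E hG hIII hL hI F' hlam (fun i ω => hlam.Z_eta F (h.HG_tilde hG hL hI) i ω)
      (s := ss L) (by rintro e; rw [e] at hs; simp at hs) hrs.col
  · intro L L' hL hI hL' hI' hnc
    obtain ⟨hlam, hrs⟩ := hall L hL hI
    obtain ⟨hlam', hrs'⟩ := hall L' hL' hI'
    exact hlam.grid_cross hlam' (Set.disjoint_left.2 (fun g hg =>
      h.HG_disj hG hL hI hL' hI' hnc hg)) F (h.HG_tilde hG hL hI) (h.HG_tilde hG hL' hI') hrs hrs'

end Cfsg.Agent.PF
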