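import Cfsg.Agent.PF.G5Z
import Cfsg.Agent.PF.G5C

set_option autoImplicit false
set_option linter.style.haveILetI false
set_option linter.unusedSectionVars false

/-! The facts (A)–(F) of notes/PF_G5G6.md for all maximal subgroups of type I. (helper7) -/

namespace Cfsg.Agent.PF

open Subgroup ComplexConjugate
open Cfsg.Agent.H3
open Cfsg.Agent.L (cj)

universe u v w

variable {G : Type u} [Group G] [Fintype G] {S T W₁ W₂ U V : Subgroup G}

/-- (Cs) and, by symmetry, (Cr) -/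
theorem IsPair.factC_one (hG : IsMinSimpleOddOrder G) (h : IsPair S T W₁ W₂ U V) {L : Subgroup G}
    [Fintype ↥S] {η : Lin W₁ W₂ → G → ℂ} {μ : Lin W₁ W₂ → ↥S → ℂ} {δ : Lin W₁ W₂ → ℤ}
    {ι : Type v} [Fintype ι] {Z : ι → G → ℂ} {m : ι → ℕ} {i₀ : ι} {Φ : G → ℂ} {s : ℤ} {e k : ℕ}
    (hL : IsCoatom L) (hI : IsOfTypeI L) (F : IsFrame S W₁ U W₂ η μ δ)
    (hlam : IsLam (HG L) e k Z m i₀ Φ)
    (hs : ∀ ψ, IsJ W₁ W₂ ψ → ψ ≠ 1 → classInner Φ (η ψ) = s) (he : Even s) :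
    (k - 1) * Nat.card W₁ ≤ e * (Nat.card U - 1) := by
  classical
  haveI : Fintype ↥T := Fintype.ofFinite _
  obtain ⟨ψ, hψ, hψ1⟩ := exJ (G := G) (W₁ := W₁) (W₂ := W₂) F.hW
  have hA0 : ∀ x ∈ typeA0 S, x ∉ HG L := fun x hx hg =>
    h.HG_tilde hG hL hI x hg (mem_tildeOf_self hx)
  have h1 := (h.good hG F).factC (h.relU hG) (m := fun i => (m i : ℤ)) hlam.sirr hlam.orth
    hlam.Z_one (fun i ω => hlam.Z_eta F (h.HG_tilde hG hL hI) i ω)
    (fun i x hx => by rw [hlam.van i x (hA0 x hx)]; push_cast; rfl) hlam.gen hlam.one hlam.real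
    (fun x hx => hlam.vanΦ x (hA0 x hx)) hψ hψ1 (hs ψ hψ hψ1) he
  rw [h.relU hG] at h1
  have h2 := hlam.sum
  have h3 : k - 1 = (∑ i, m i ^ 2) * e := by omega
  have h4 : Nat.card W₁ * ∑ i, m i ^ 2 ≤ Nat.card U - 1 := by
    have : 1 ≤ Nat.card U := Nat.card_pos
    have h5 : ((Nat.card W₁ * ∑ i, m i ^ 2 : ℕ) : ℤ) ≤ ((Nat.card U - 1 : ℕ) : ℤ) := by
      push_cast [this] at h1 ⊢
      exact h1
    exact_mod_cast h5
  rw [h3]
  calc (∑ i, m i ^ 2) * e * Nat.card W₁ = e * (Nat.card W₁ * ∑ i, m i ^ 2) := by ring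
    _ ≤ e * (Nat.card U - 1) := Nat.mul_le_mul_left _ h4

theorem swF_swL {η : Lin W₁ W₂ → G → ℂ} (φ : Lin W₂ W₁) : swF η φ = η (swL φ) := rfl

/-- **the facts about the maximal subgroups of type I** -/
theorem IsPair.lfacts (hG : IsMinSimpleOddOrder G) (h : IsPair S T W₁ W₂ U V)
    (hlt : Nat.card W₁ < Nat.card W₂) :
    ∃ rr ss : Subgroup G → ℤ, LFacts S T W₁ W₂ U V rr ss := by
  refine h.lfacts' hG hlt ?_
  intro L _ _ η μ δ ν ε ι _ Z m i₀ Φ r s hL hI F F' hlam hrs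
  refine ⟨fun he => h.factC_one hG hL hI F hlam hrs.col he, fun he => ?_⟩
  refine h.symm.factC_one hG hL hI F' hlam (s := r) (fun ψ hψ hψ1 => ?_) he
  refine hrs.row _ (isI_swL.2 hψ) (fun e => hψ1 ?_)
  have : (swL (swL ψ : Lin W₁ W₂) : Lin W₂ W₁) = swL 1 := by rw [e]
  rwa [swL_swL, swL_one] at this

end Cfsg.Agent.PF
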