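import Cfsg.Agent.PF.Supp
import Cfsg.Agent.PF.SecC20
import Cfsg.Agent.PF.BBD
import Cfsg.Agent.S1379

set_option autoImplicit false

/-! S1539 -/

namespace Cfsg.Agent.PF

open Subgroup
open Cfsg.Agent.L (cj nz)
open Cfsg.Agent.OOT
open Cfsg.Agent.H21
open scoped Pointwise

universe u
variable {G : Type u} [Group G] [Finite G] (hG : IsMinSimpleOddOrder G)
include hG

theorem typeA1_eq_sigma {M : Subgroup G} (hM : IsCoatom M) :
    typeA1 M = (sigmaCore M : Set G) \ {1} := by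
  rw [typeA1, H14.TY.typeCore_eq hG hM]

theorem type_cases {M : Subgroup G} (hM : IsCoatom M) :
    IsOfTypeI M ∨ IsOfTypeII M ∨ IsOfTypeIII M := by
  by_cases hI : H2.WTypeI M
  · exact Or.inl (T1.weak_typeI hG hM hI)
  · obtain ⟨W₁, U, W₂, hP⟩ := exists_P_of_not_w hG hM hI
    rcases types_of_P hG hM hP with h | h | h | h
    · exact Or.inr (Or.inl h)
    · exact Or.inr (Or.inr h)
    · exact absurd h (BBD.no_typeIV hG hM)
    · exact absurd h (no_typeV' hG hM)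

theorem A_eq_A1_of_not_II {M : Subgroup G} (hM : IsCoatom M) (h : ¬ IsOfTypeII M) :
    typeA M = typeA1 M := by
  refine subset_antisymm ?_ (A1_sub_A' hG hM)
  rcases type_cases hG hM with hI | hII | hIII
  · rw [typeA, if_pos hI, typeA1, typeCore_I hG hM hI]
    rintro a ⟨h1, h2, y, hy, hy1, e⟩
    exact ⟨row1540 hG hM hI y hy hy1 ⟨h1, mem_cent_singleton.2 e⟩, h2⟩
  · exact absurd hII h
  · rw [typeA, if_neg (not_typeI_of_III hG hM (Or.inl hIII)), typeA1, typeCore_III (Or.inl hIII)]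
    rintro a ⟨h1, h2, -⟩
    exact ⟨h1, h2⟩

theorem coprime_sigmaCore {S T : Subgroup G} (hS : IsCoatom S) (hT : IsCoatom T)
    (hnc : ∀ g : G, cj g T ≠ S) :
    (Nat.card (sigmaCore S)).Coprime (Nat.card (sigmaCore T)) := by
  rw [Nat.coprime_iff_gcd_eq_one]
  by_contra hne
  obtain ⟨p, hp, hpd⟩ := Nat.exists_prime_and_dvd hne
  have h1 : p ∈ sigma S := (ms_hall hG hS).2.1 p hp (hpd.trans (Nat.gcd_dvd_left _ _))
  have h3 : p ∈ sigma T := (ms_hall hG hT).2.1 p hp (hpd.trans (Nat.gcd_dvd_right _ _))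
  obtain ⟨c, hc⟩ := sigma_conj hG hT hS h3 h1
  exact hnc c hc.symm

theorem row1539_two {S T : Subgroup G} (hS : IsCoatom S) (hT : IsCoatom T)
    (hnc : ∀ g : G, cj g T ≠ S) {x : G} (hx : x ∈ typeA1 S ∩ typeA T) :
    ¬ centralizer ({x} : Set G) ≤ S ∧ centralizer ({x} : Set G) ≤ T := by
  have hcop := coprime_sigmaCore hG hS hT hnc
  have hx1 : x ≠ 1 := hx.1.2
  have hxS : x ∈ sigmaCore S := by
    have := hx.1
    rw [typeA1_eq_sigma hG hS] at this
    exact this.1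
  have hII : IsOfTypeII T := by
    by_contra hII
    have h1 := hx.2
    rw [A_eq_A1_of_not_II hG hT hII, typeA1_eq_sigma hG hT] at h1
    have h2 := Nat.eq_one_of_dvd_coprimes hcop (Subgroup.orderOf_dvd_natCard _ hxS)
      (Subgroup.orderOf_dvd_natCard _ h1.1)
    exact hx1 (orderOf_eq_one_iff.1 h2)
  have hc : (orderOf x).Coprime (Nat.card (fittingHallOf T)) := by
    have e : fittingHallOf T = sigmaCore T := by
      rw [← H14.TY.typeCore_eq hG hT, typeCore_II hG hT hII]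
    rw [e]
    exact Nat.Coprime.coprime_dvd_left (Subgroup.orderOf_dvd_natCard _ hxS) hcop
  have hu : ∀ N : Subgroup G, IsCoatom N → centralizer ({x} : Set G) ≤ N → N = T :=
    fun N hN h => uniq_of_A_II hG hT hII hx.2 hc hN h
  refine ⟨fun h => hnc 1 ?_, ?_⟩
  · rw [hu S hS h]
    exact L.cj_eq_self_of_mem (one_mem _)
  · obtain ⟨N, hN, h⟩ := cent_singleton_le_coatom hG hx1
    rwa [hu N hN h] at h

theorem row1539_one {S T : Subgroup G} (hS : IsCoatom S) (hT : IsCoatom T)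
    (hnc : ∀ g : G, cj g T ≠ S) : Supports T S ↔ (typeA1 S ∩ typeA T).Nonempty := by
  constructor
  · rintro ⟨-, x, hx, hxS, hxT⟩
    obtain ⟨-, h2, h3⟩ := row1391 hG hS (X := typeA0 S) (Or.inr rfl)
    obtain ⟨-, -, -, -, ⟨h4, -⟩, -⟩ := h3 x hx hxS T hT hxT
    exact ⟨x, (h2 x hx hxS).1, h4⟩
  · rintro ⟨x, hx⟩
    obtain ⟨h1, h2⟩ := row1539_two hG hS hT hnc hx
    exact ⟨hT, x, Or.inl (A1_sub_A' hG hS hx.1), h1, h2⟩

theorem mem_typeA_of_cj {T : Subgroup G} (hT : IsCoatom T) {g : G} (hII : IsOfTypeII (cj g T))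
    {x : G} (hx : x ∈ typeA (cj g T)) : g⁻¹ * x * g ∈ typeA T := by
  have hT' := coatom_cj hT g
  obtain ⟨W₁, U, W₂, hP, -⟩ := id hII
  have hP' := isTypePWith_cj g⁻¹ hP
  rw [L.cj_inv_cj] at hP'
  rw [typeA, if_neg (not_typeI_of_II hG hT' hII)] at hx
  rw [a_typeA_eq hG hT hP']
  obtain ⟨h1, h2, y, hy, hy1, e⟩ := hx
  have key : ∀ {a : G}, a ≠ 1 → g⁻¹ * a * g ≠ 1 := by
    intro a ha h
    have := conj_ne_one (m := g⁻¹) ha
    rw [inv_inv] at this
    exact this h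
  refine ⟨?_, key h2, g⁻¹ * y * g, ?_, key hy1, ?_⟩
  · have h3 : x ∈ cj g ⁅T, T⁆ := by rw [← cj_commutator]; exact h1
    exact mem_cj.1 h3
  · rw [H14.TY.typeCore_eq hG hT', sigmaCore_cj] at hy
    rw [H14.TY.typeCore_eq hG hT]
    exact mem_cj.1 hy
  · have := conj_comm' (m := g⁻¹) e
    rwa [inv_inv] at this

theorem row1539_three {S T : Subgroup G} (hS : IsCoatom S) (hT : IsCoatom T)
    (hnc : ∀ g : G, cj g T ≠ S) : (∃ g : G, Supports (cj g T) S) ↔
      (tildeOf S (typeA1 S) ∩ tildeOf T (typeA T)).Nonempty := by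
  have hnc' : ∀ g h : G, cj h (cj g T) ≠ S := fun g h => by rw [L.cj_cj]; exact hnc _
  constructor
  · rintro ⟨g, hg⟩
    have hT' := coatom_cj hT g
    obtain ⟨-, y, hy, hyS, hyT⟩ := id hg
    have hII := typeII_of_supports hG hS hy hyS hT' hyT
    obtain ⟨x, hx1, hx2⟩ := (row1539_one hG hS hT' (hnc' g)).1 hg
    refine ⟨x, ⟨x, hx1, 1, one_mem _, 1, by group⟩, ⟨g⁻¹ * x * g, mem_typeA_of_cj hG hT hII hx2, 1,
      one_mem _, g, by group⟩⟩
  · intro hne
    by_contra hns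
    push Not at hns
    by_cases hII : IsOfTypeII T
    · exact hne.ne_empty (tilde_disj_II hG hS hT hII hnc hns)
    · rw [A_eq_A1_of_not_II hG hT hII, typeA1_eq_sigma hG hS, typeA1_eq_sigma hG hT] at hne
      exact hne.ne_empty ((Cfsg.Agent.S1379.result hG).1 S T hS hT fun g e => by
        change T = cj g S at e
        refine hnc g⁻¹ ?_
        rw [e, L.cj_inv_cj])

theorem row1539_four {S T : Subgroup G} (hS : IsCoatom S) (hT : IsCoatom T)
    (hnc : ∀ g : G, cj g T ≠ S) :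
    tildeOf S (typeA1 S) ∩ tildeOf T (typeA T) = ∅ ∨
      tildeOf T (typeA1 T) ∩ tildeOf S (typeA S) = ∅ := by
  have hnc' : ∀ g : G, cj g S ≠ T := fun g e => hnc g⁻¹ (by rw [← e, L.cj_inv_cj])
  by_contra h
  push Not at h
  obtain ⟨h1, h2⟩ := h
  obtain ⟨g, -, x, hx, hxS, hxT⟩ := (row1539_three hG hS hT hnc).2 h1
  obtain ⟨g', -, y, hy, hyT, hyS⟩ := (row1539_three hG hT hS hnc').2 h2
  have hII := typeII_of_supports hG hT hy hyT (coatom_cj hS g') hyS
  obtain ⟨W₁, U, W₂, hP, -⟩ := id hII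
  have hP' := isTypePWith_cj g'⁻¹ hP
  rw [L.cj_inv_cj] at hP'
  exact hxS (cent_le_of_mem_A0 hG hS hP' hx)

end Cfsg.Agent.PF
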